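import Cfsg.Agent.Lib.Compute.PermCert
import Cfsg.Agent.Lib.Compute.CoverCert

/-!
# Small tools for the checks of tables
-/

set_option autoImplicit false

namespace Cfsg.Agent.Lib.Compute.Mult

open Cfsg.Agent.Lib.Compute.PermCert

/-- A check on a block. -/
theorem blk {f : ℕ → Bool} {a b u : ℕ} (h : allB (fun r => f (Nat.add a r)) b = true) (h1 : a ≤ u) (h2 : u < a + b) :
    f u = true := by
  have h3 := (allB_iff _ _).1 h (u - a) (by omega)
  have h4 : Nat.add a (u - a) = u := by
    show a + (u - a) = u
    omega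
  rwa [h4] at h3


open Cfsg Cfsg.Agent.Lib.Compute.SchurLin Cfsg.Agent.Lib.Compute.CoverCert
open Cfsg.Agent.Lib.Compute.ToddCoxeterCore (wordEl wordEl_nil wordEl_cons wordEl_append)

/-- A simple group, not commutative, is perfect. -/
theorem perfect_of_simple {X : Type*} [Group X] [IsSimpleGroup X] (h : ¬ IsMulCommutative X) : commutator X = ⊤ := by
  have hn : (commutator X).Normal := inferInstance
  rcases hn.eq_bot_or_eq_top with h1 | h1
  · exfalso
    apply h
    refine ⟨⟨fun a b => ?_⟩⟩
    have h2 := Subgroup.commutator_mem_commutator (Subgroup.mem_top a) (Subgroup.mem_top b)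
    rw [← commutator_def, h1, Subgroup.mem_bot, commutatorElement_eq_one_iff_mul_comm] at h2
    exact h2
  · exact h1

section Faithful

variable {G : Type*} [Group G] {t : ℕ → ℕ → ℕ} {n N : ℕ} {g : ℕ → G}

/-- An action on a table is faithful, when the group is simple and a generator moves a point. -/
theorem injective_of_table [IsSimpleGroup G] (c : PTab t n N) (ρ : G →* Equiv.Perm (Fin N))
    (hρ : ∀ j < n, ρ (g j) = tp c j) (hmove : ∃ j < n, ∃ i < N, t i (2 * j) ≠ i) : Function.Injective ρ := by
  rcases (MonoidHom.normal_ker ρ).eq_bot_or_eq_top with h | h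
  · exact (MonoidHom.ker_eq_bot_iff ρ).1 h
  · exfalso
    obtain ⟨j, hj, i, hi, hne⟩ := hmove
    have h1 : g j ∈ ρ.ker := by rw [h]; trivial
    have h2 : tp c j = 1 := by
      rw [← hρ j hj]
      exact h1
    have hx : 2 * j < 2 * n := by omega
    have h3 := word_tp c [2 * j] (by simpa using hx) ⟨i, hi⟩
    have h4 : ltr (tp c) (2 * j) = tp c j := by
      have h5 : 2 * j / 2 = j := by omega
      simp [ltr, h5]
    rw [wordEl_cons, wordEl_nil, one_mul, h4, h2] at h3
    exact hne h3.symm

/-- A closed word on a faithful table is a relation. -/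
theorem word_one_of_table [IsSimpleGroup G] (c : PTab t n N) (ρ : G →* Equiv.Perm (Fin N))
    (hρ : ∀ j < n, ρ (g j) = tp c j) (hmove : ∃ j < n, ∃ i < N, t i (2 * j) ≠ i) {w : List ℕ}
    (hw : ∀ x ∈ w, x < 2 * n) (hend : ∀ i < N, walkEnd t i w = i) : wordEl (ltr g) w = 1 := by
  apply injective_of_table c ρ hρ hmove
  rw [map_one, map_wordEl_ltr]
  have h1 : wordEl (ltr (fun j => ρ (g j))) w = wordEl (ltr (tp c)) w := by
    have h2 : ∀ x ∈ w, ltr (fun j => ρ (g j)) x = ltr (tp c) x := by
      intro x hx
      have h3 : x / 2 < n := by have := hw x hx; omega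
      simp only [ltr, hρ _ h3]
    clear hend
    induction w with
    | nil => rfl
    | cons y u ih =>
      rw [wordEl_cons, wordEl_cons, h2 y (by simp), ih (fun x hx => hw x (by simp [hx]))
        (fun x hx => h2 x (by simp [hx]))]
  rw [h1]
  ext i
  rw [word_tp c w hw i, hend i i.2]
  rfl

end Faithful

end Cfsg.Agent.Lib.Compute.Mult
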