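import Cfsg.Agent.Lib.Compute.Mult.PLocal
import Cfsg.Agent.Lib.Compute.Mult.Tools
import Cfsg.Agent.Lib.Compute.PresTransfer2

/-!
# A stem extension of a perfect subgroup with a small multiplier

The tools on tables, with the lifts of the generators made explicit, and the use of a perfect subgroup whose multiplier
has order two, generated by an element which is a square in the kernel.
-/

set_option autoImplicit false

namespace Cfsg.Agent.Lib.Compute.Mult.PLocal

open Cfsg Cfsg.Agent.Lib.Compute.SchurLin Cfsg.Agent.Lib.Compute.SchurU Cfsg.Agent.Lib.Compute.PeelCert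
open Cfsg.Agent.Lib.Compute.CoverCert Cfsg.Agent.Lib.Compute.PermCert
open Cfsg.Agent.Lib.Compute.ToddCoxeterCore (wordEl wordEl_nil wordEl_cons wordEl_append)
open scoped commutatorElement

/-- The data of a stem extension give labels, with the lifts of the generators. -/
theorem exists_cocy_Y {Γ G Ω : Type*} [Group Γ] [Group G] [MulAction G Ω] {σ : Γ →* G}
    (hstem : IsStemExtension σ) {g : ℕ → G} {ω : ℕ → Ω} {n N : ℕ} {t : ℕ → ℕ → ℕ} {par lt : ℕ → ℕ}
    (tab : Tab g ω n N t par lt) (hgenG : ∀ h : G, h ∈ Subgroup.closure (g '' Set.Iio n))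
    {W : List (List ℕ)} (hletW : ∀ k, ∀ x ∈ W.getD k [], x < 2 * n)
    (hrelG : ∀ k, wordEl (ltr g) (W.getD k []) = 1)
    (hexactW : ∀ k < n, ∃ C : List ℕ, W.getD k [] = C ++ [2 * k + 1])
    (hexpW : ∀ k < n, ∀ j < n, expV ((W.getD k []).dropLast) j = 0)
    (s : MulAction.stabilizer G (ω 0) →* Γ) (hs : ∀ l, σ (s l) = l) :
    ∃ (Y : ℕ → Γ) (z : ℕ → ℕ → σ.ker) (rr : ℕ → σ.ker), (∀ j, σ (Y j) = g j) ∧
      Cfsg.Agent.Lib.Compute.SchurLin.Cocy t par lt n N W n z rr ∧ ∀ k, ((rr k : σ.ker) : Γ) = wordEl (ltr Y) (W.getD k []) := by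
  classical
  obtain ⟨hsurj, hc, hcomm⟩ := hstem
  have hC : ∀ j < n, wordEl (ltr g) ((W.getD j []).dropLast) = g j := by
    intro j hj
    obtain ⟨C, hCe⟩ := hexactW j hj
    have h1 := hrelG j
    rw [hCe, wordEl_append] at h1
    rw [hCe, List.dropLast_concat]
    have h2 : ltr g (2 * j + 1) = (g j)⁻¹ := by
      have h4 : (2 * j + 1) / 2 = j := by omega
      simp [ltr, h4]
    rw [wordEl_cons, wordEl_nil, one_mul, h2] at h1
    exact (inv_mul_eq_one.1 h1).symm
  have hletC : ∀ j < n, ∀ x ∈ (W.getD j []).dropLast, x < 2 * n :=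
    fun j _ x hx => hletW j x (List.mem_of_mem_dropLast hx)
  obtain ⟨Y, hY, hYC⟩ := exists_normalized σ hsurj hc hC hletC hexpW
  have hgY : (fun j => σ (Y j)) = g := funext hY
  have hgen : ∀ a : Γ, ∃ w : List ℕ, (∀ x ∈ w, x < 2 * n) ∧ wordEl (ltr Y) w = a := by
    apply gen_of_stem ⟨hsurj, hc, hcomm⟩
    rw [hgY]
    exact hgenG
  have tab' : Tab (fun j => σ (Y j)) ω n N t par lt := by
    rw [hgY]
    exact tab
  obtain ⟨z, h1, h2, h3, h4⟩ := exists_cocycle hc hgen tab' s hs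
  have hker : ∀ k, wordEl (ltr Y) (W.getD k []) ∈ σ.ker := by
    intro k
    rw [MonoidHom.mem_ker, map_wordEl_ltr, hgY]
    exact hrelG k
  refine ⟨Y, z, fun k => ⟨wordEl (ltr Y) (W.getD k []), hker k⟩, hY, ?_, fun k => rfl⟩
  refine ⟨h2, h1, ?_, ?_, h4⟩
  · intro k hk
    apply Subtype.ext
    obtain ⟨C, hCe⟩ := hexactW k hk
    have h5 := hYC k hk
    rw [hCe, List.dropLast_concat] at h5
    show wordEl (ltr Y) (W.getD k []) = 1
    rw [hCe, wordEl_append, h5, wordEl_cons, wordEl_nil, one_mul]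
    have h4' : (2 * k + 1) / 2 = k := by omega
    simp [ltr, h4']
  · intro k i hi he
    exact h3 _ (hletW k) i hi he (hker k)

section Peel

variable {A : Type*} [CommGroup A] {t : ℕ → ℕ → ℕ} {z : ℕ → ℕ → A} {rr : ℕ → A} {n N : ℕ} {W : List (List ℕ)}

/-- The final step of the peeling, with the generator named. -/
theorem peel_final_q {par lt : ℕ → ℕ} {rk formT kk ss pV : ℕ → ℕ} {e off E B kmax R c0 a Lm a2 : ℕ}
    (hcoc : Cfsg.Agent.Lib.Compute.SchurLin.Cocy t par lt n N W e z rr) (hn : 0 < n) (hlt : ∀ i < N, ∀ x < 2 * n, t i x < N)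
    (hlet : ∀ k, ∀ x ∈ W.getD k [], x < 2 * n)
    (hpar : ∀ i < N, i ≠ 0 → par i < N ∧ lt i < 2 * n ∧ t (par i) (lt i) = i)
    (hB : 1 < B) (hE : E = B ^ (R + c0)) (hkmax : kmax ≤ e + R) (hss : ∀ u < N * n, ss u < N) (hLm1 : 1 ≤ Lm)
    (hLm : Lm * (a + 1) + 2 + 1 < B) (hLm2 : Lm * a + a2 + 1 + 1 < B) (hlen : ∀ k, (W.getD k []).length ≤ Lm)
    (hoff : bdB B a (R + c0) off = true) (hbd : ∀ u < N * n, bdB B a (R + c0) (formT (rk u)) = true)
    (hchk : ∀ u < N * n, chkVar t n par lt rk formT kk ss pV W off E e B kmax R c0 u = true)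
    {rels : List (ℕ × ℕ × ℕ × ℕ)} (hrels : relsOK t n N rk formT W off e B a2 (R + c0) kmax rels = true)
    {f m : ℕ} {ps0 ms0 : List ℕ} (hord : cmbOK (relVecs B (R + c0) rels) ps0 ms0 (unitV f m) = true)
    {tgs : List (ℕ × ℕ × List ℕ × List ℕ)} (htg : tgs.all (tgtOK (relVecs B (R + c0) rels) f) = true)
    (hcov : ∀ j < R + c0, j = f ∨ j ∈ tgs.map Prod.fst) :
    (qOf z rr n N e R pV f) ^ m = 1 ∧ ∀ x : A, x ∈ Subgroup.zpowers (qOf z rr n N e R pV f) := by
  have ctx : LinCtx t z rr n N W := hcoc.toLin (MonoidHom.id A) hn hlt hlet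
  have hall := peel_main (kk := kk) (ss := ss) (pV := pV) (E := E) (kmax := kmax) (a := a) (Lm := Lm) ctx hpar
    hcoc.htree hcoc.hexact hB hE hkmax hss hLm1 hLm hlen hoff hbd hchk
  set q := qOf z rr n N e R pV with hq
  have hbd' : ∀ u < N * n, Bd B a (R + c0) (formT (rk u)) := fun u hu => Bd_of_bdB (hbd u hu)
  have hrel : ∀ r ∈ relVecs B (R + c0) rels, ev q 0 r.1 = ev q 0 r.2 := by
    intro r hr
    obtain ⟨x, hx, rfl⟩ := List.mem_map.mp hr
    have h1 := List.all_eq_true.mp hrels x hx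
    simp only [Bool.and_eq_true, Nat.blt_eq] at h1
    exact rel_of_row ctx hcoc.hexact hB hkmax h1.1 hLm1 hLm2 (hlen _) (Bd_of_bdB hoff) hbd' hall h1.2
  have hcons : ∀ {ps ms τ : List ℕ}, cmbOK (relVecs B (R + c0) rels) ps ms τ = true → ev q 0 τ = 1 := by
    intro ps ms τ h
    exact ev_target hrel (of_decide_eq_true h)
  refine ⟨?_, ?_⟩
  · have h1 := hcons hord
    rw [ev_unitV, Nat.zero_add] at h1
    exact h1
  · have hqj : ∀ j, j < R + c0 → q j ∈ Subgroup.zpowers (q f) := by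
      intro j hj
      rcases hcov j hj with rfl | h
      · exact Subgroup.mem_zpowers _
      · obtain ⟨x, hx, rfl⟩ := List.mem_map.mp h
        have h1 := hcons (List.all_eq_true.mp htg x hx)
        rw [ev_addV, ev_unitV, ev_unitV, Nat.zero_add, Nat.zero_add, pow_one] at h1
        have h2 : q x.1 = ((q f) ^ x.2.1)⁻¹ := eq_inv_of_mul_eq_one_left h1
        rw [h2]
        exact inv_mem (pow_mem (Subgroup.mem_zpowers _) _)
    have h3 := labels_mem (f := fun u => formT (rk u)) ctx hall (Subgroup.zpowers (q f)) hqj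
    have h4 := hcoc.hgen _ h3
    intro x
    rw [h4]
    trivial

end Peel

/-- A closed word on a faithful table is a relation. -/
theorem word_one_of_inj {G : Type*} [Group G] {t : ℕ → ℕ → ℕ} {n N : ℕ} {g : ℕ → G} (c : PTab t n N)
    (ρ : G →* Equiv.Perm (Fin N)) (hρ : ∀ j < n, ρ (g j) = tp c j) (hinj : Function.Injective ρ) {w : List ℕ}
    (hw : ∀ x ∈ w, x < 2 * n) (hend : ∀ i < N, walkEnd t i w = i) : wordEl (ltr g) w = 1 := by
  apply hinj
  rw [map_one, map_wordEl_ltr]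
  have h1 : wordEl (ltr (fun j => ρ (g j))) w = wordEl (ltr (tp c)) w := by
    have h2 : ∀ x ∈ w, ltr (fun j => ρ (g j)) x = ltr (tp c) x := by
      intro x hx
      have h3 : x / 2 < n := by have := hw x hx; omega
      simp only [ltr, hρ _ h3]
    clear hend
    induction w with
    | nil => rfl
    | cons y u ih =>
      rw [wordEl_cons, wordEl_cons, h2 y (by simp), ih (fun x hx => hw x (by simp [hx]))
        (fun x hx => h2 x (by simp [hx]))]
  rw [h1]
  ext i
  rw [word_tp c w hw i, hend i i.2]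
  rfl

/-- The commutator subgroup of the preimage of a perfect subgroup is a stem extension of it. -/
theorem exists_stem_sub {Γ G : Type*} [Group Γ] [Group G] {σ : Γ →* G} (hstem : IsStemExtension σ) (L : Subgroup G)
    (hL : commutator L = ⊤) :
    ∃ τ : ↥(⁅L.comap σ, L.comap σ⁆) →* L, (∀ x, ((τ x : L) : G) = σ x) ∧ IsStemExtension τ := by
  obtain ⟨hs, hc, hcomm⟩ := hstem
  set E : Subgroup Γ := L.comap σ with hE
  set D : Subgroup Γ := ⁅E, E⁆ with hD
  have hLL : ⁅L, L⁆ = L := by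
    have h1 := Subgroup.map_subtype_commutator L
    rw [hL] at h1
    rw [← h1]
    ext x
    simp
  have hEmap : E.map σ = L := Subgroup.map_comap_eq_self_of_surjective hs L
  have hDmap : D.map σ = L := by
    rw [hD, Subgroup.map_commutator, hEmap, hLL]
  have hdec : ∀ e ∈ E, ∃ d ∈ D, ∃ z ∈ σ.ker, e = d * z := by
    intro e he
    have h1 : σ e ∈ D.map σ := by rw [hDmap]; exact he
    obtain ⟨d, hd, hde⟩ := h1
    refine ⟨d, hd, d⁻¹ * e, ?_, by group⟩
    rw [MonoidHom.mem_ker, map_mul, map_inv, hde, inv_mul_cancel]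
  have hDD : D ≤ ⁅D, D⁆ := by
    show ⁅E, E⁆ ≤ ⁅D, D⁆
    rw [Subgroup.commutator_le]
    intro a ha b hb
    obtain ⟨d, hd, z, hz, rfl⟩ := hdec a ha
    obtain ⟨f, hf, y, hy, rfl⟩ := hdec b hb
    rw [commutatorElement_def, comm_central_mul d f z y (hc hz) (hc hy)]
    have h5 := Subgroup.commutator_mem_commutator hd hf
    rwa [commutatorElement_def] at h5
  let τ : D →* L := (σ.comp D.subtype).codRestrict L (fun x => by
    have : σ x ∈ D.map σ := ⟨x, x.2, rfl⟩
    rw [hDmap] at this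
    exact this)
  have hτs : Function.Surjective τ := by
    rintro ⟨l, hl⟩
    rw [← hDmap] at hl
    obtain ⟨d, hd, rfl⟩ := hl
    exact ⟨⟨d, hd⟩, Subtype.ext rfl⟩
  refine ⟨τ, fun _ => rfl, hτs, ?_, ?_⟩
  · intro x hx
    have h1 : σ (x : Γ) = 1 := congrArg Subtype.val (MonoidHom.mem_ker.mp hx)
    have h2 := Subgroup.mem_center_iff.mp (hc (MonoidHom.mem_ker.mpr h1))
    rw [Subgroup.mem_center_iff]
    intro y
    apply Subtype.ext
    exact h2 y
  · have h1 : commutator D = ⊤ := by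
      apply Subgroup.map_injective D.subtype_injective
      rw [Subgroup.map_subtype_commutator]
      ext x
      simp only [Subgroup.mem_map, Subgroup.mem_top, true_and, Subgroup.subtype_apply]
      constructor
      · intro hx
        exact ⟨⟨x, comm_le_self D hx⟩, rfl⟩
      · rintro ⟨y, rfl⟩
        exact hDD y.2
    rw [h1]
    exact le_top

/-- Composition of a stem extension with an isomorphism. -/
theorem stem_comp_equiv {Γ G X : Type*} [Group Γ] [Group G] [Group X] {τ : Γ →* G} (hτ : IsStemExtension τ) (e : G ≃* X) :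
    IsStemExtension (e.toMonoidHom.comp τ) := by
  have hk : (e.toMonoidHom.comp τ).ker = τ.ker := by
    ext x
    simp [MonoidHom.mem_ker]
  refine ⟨e.surjective.comp hτ.1, ?_, ?_⟩
  · rw [hk]
    exact hτ.2.1
  · rw [hk]
    exact hτ.2.2

/-- The local bound through a perfect subgroup whose multiplier is generated by an element of order at most two, which
is a square in the kernel of every stem extension of the big group. -/
theorem local_two {Γ G X : Type} [Group Γ] [Group G] [Group X] [Finite Γ] {σ : Γ →* G} (hstem : IsStemExtension σ)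
    (hG : commutator G = ⊤) (ψ : X →* G) (hψ : Function.Injective ψ) (hX : commutator X = ⊤) (g : ℕ → X)
    (uW vW : List ℕ) (c : G)
    (hU : (ψ (wordEl (ltr g) uW)) ^ 2 = 1)
    (hV : ψ (wordEl (ltr g) vW) = c * ψ (wordEl (ltr g) uW) * c⁻¹)
    (hup : ∀ (Γ' : Type) [Group Γ'] [Finite Γ'] (σ' : Γ' →* X), IsStemExtension σ' →
      ∃ Y : ℕ → Γ', (∀ j, σ' (Y j) = g j) ∧
        (wordEl (ltr Y) (vW ++ vW ++ uW ++ uW)) ^ 2 = 1 ∧
        ∀ x ∈ σ'.ker, x ∈ Subgroup.zpowers (wordEl (ltr Y) (vW ++ vW ++ uW ++ uW)))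
    {n : ℕ} (hn : n = ψ.range.index) (hodd : Odd n) {a : Γ} (ha : a ∈ σ.ker) : a ^ n = 1 := by
  classical
  subst hn
  set L : Subgroup G := ψ.range with hLd
  have hLp : commutator L = ⊤ := commutator_top_of_equiv (MonoidHom.ofInjective hψ).symm hX
  obtain ⟨τ0, hτ0, hst0⟩ := exists_stem_sub hstem L hLp
  let eL : L ≃* X := (MonoidHom.ofInjective hψ).symm
  have heL : ∀ l : L, ψ (eL l) = l := by
    intro l
    have := (MonoidHom.ofInjective hψ).apply_symm_apply l
    exact congrArg Subtype.val this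
  let σ' := eL.toMonoidHom.comp τ0
  have hst' : IsStemExtension σ' := stem_comp_equiv hst0 eL
  obtain ⟨Y, hY, hsq, hgen⟩ := hup _ σ' hst'
  -- the values in the big group
  let i : ↥(⁅L.comap σ, L.comap σ⁆) →* Γ := Subgroup.subtype _
  have hσi : ∀ x, σ (i x) = ψ (σ' x) := by
    intro x
    have h1 : ψ (σ' x) = ((τ0 x : L) : G) := heL _
    rw [h1, hτ0]
    rfl
  have hiW : ∀ w : List ℕ, i (wordEl (ltr Y) w) = wordEl (ltr (fun j => i (Y j))) w := fun w => map_wordEl_ltr i Y w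
  have hσW : ∀ w : List ℕ, σ (i (wordEl (ltr Y) w)) = ψ (wordEl (ltr g) w) := by
    intro w
    rw [hσi, map_wordEl_ltr, show (fun j => σ' (Y j)) = g from funext hY]
  set Ut := i (wordEl (ltr Y) uW) with hUt
  set Vt := i (wordEl (ltr Y) vW) with hVt
  set tau := wordEl (ltr Y) (vW ++ vW ++ uW ++ uW) with htau
  have htauG : i tau = Ut * Ut * Vt * Vt := by
    rw [htau]
    simp only [wordEl_append, map_mul]
    simp only [mul_assoc, hUt, hVt]
  have hcen : ∀ z ∈ σ.ker, ∀ w : Γ, w * z = z * w := fun z hz w =>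
    Subgroup.mem_center_iff.mp (hstem.2.1 hz) w
  obtain ⟨ct, hct⟩ := hstem.1 c
  -- the square
  have hb : Ut ^ 2 ∈ σ.ker := by
    rw [MonoidHom.mem_ker, map_pow, hUt, hσW]
    exact hU
  set al := Vt⁻¹ * (ct * Ut * ct⁻¹) with hal
  have hal1 : al ∈ σ.ker := by
    rw [MonoidHom.mem_ker, hal, map_mul, map_inv, map_mul, map_mul, map_inv, hct, hVt, hσW, hUt, hσW, hV]
    group
  have hVe : ct * Ut * ct⁻¹ = Vt * al := by
    rw [hal]
    group
  have hsq2 : Vt ^ 2 * al ^ 2 = Ut ^ 2 := by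
    have h1 : (ct * Ut * ct⁻¹) ^ 2 = ct * Ut ^ 2 * ct⁻¹ := by
      simp only [pow_two]
      group
    have h1' : ct * Ut ^ 2 * ct⁻¹ = Ut ^ 2 := by
      rw [hcen _ hb ct, mul_inv_cancel_right]
    rw [h1', hVe] at h1
    rw [← h1]
    have h2 := hcen al hal1 Vt
    simp only [pow_two]
    calc Vt * Vt * (al * al) = Vt * ((Vt * al) * al) := by group
      _ = Vt * ((al * Vt) * al) := by rw [h2]
      _ = Vt * al * (Vt * al) := by group
  -- the element is a square in the kernel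
  set γ := Ut ^ 2 * al⁻¹ with hγ
  have hγk : γ ∈ σ.ker := σ.ker.mul_mem hb (σ.ker.inv_mem hal1)
  have hs : i tau = γ ^ 2 := by
    have hal2 : al⁻¹ ∈ σ.ker := σ.ker.inv_mem hal1
    have h1 : Vt * Vt = Ut ^ 2 * (al⁻¹ * al⁻¹) := by
      have h0 := hsq2
      rw [pow_two Vt, pow_two al] at h0
      rw [← h0]
      group
    have h3 : Ut ^ 2 * al⁻¹ = al⁻¹ * Ut ^ 2 := hcen _ hal2 _
    rw [htauG, hγ, pow_two (Ut ^ 2 * al⁻¹)]
    calc Ut * Ut * Vt * Vt = Ut ^ 2 * (Vt * Vt) := by rw [pow_two]; group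
      _ = Ut ^ 2 * (Ut ^ 2 * (al⁻¹ * al⁻¹)) := by rw [h1]
      _ = Ut ^ 2 * ((Ut ^ 2 * al⁻¹) * al⁻¹) := by group
      _ = Ut ^ 2 * ((al⁻¹ * Ut ^ 2) * al⁻¹) := by rw [h3]
      _ = Ut ^ 2 * al⁻¹ * (Ut ^ 2 * al⁻¹) := by group
  -- the transfer
  have hmem : ∀ b ∈ σ.ker, b ^ L.index ∈ Subgroup.zpowers (i tau) := by
    intro b hb
    obtain ⟨y, hy⟩ := pow_index_mem hstem hG L hb
    have hyD : b ^ L.index ∈ ⁅L.comap σ, L.comap σ⁆ := by
      rw [← hy]
      have h1 := y.2
      have h2 : (commutator (L.comap σ)).map (L.comap σ).subtype ≤ ⁅L.comap σ, L.comap σ⁆ := by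
        rw [Subgroup.map_subtype_commutator]
      exact h2 ⟨y.1, h1, rfl⟩
    let d : ↥(⁅L.comap σ, L.comap σ⁆) := ⟨b ^ L.index, hyD⟩
    have hd : d ∈ σ'.ker := by
      rw [MonoidHom.mem_ker]
      apply hψ
      rw [map_one, ← hσi]
      show σ (b ^ L.index) = 1
      rw [map_pow, MonoidHom.mem_ker.mp hb, one_pow]
    obtain ⟨k, hk⟩ := hgen d hd
    refine ⟨k, ?_⟩
    have h2 := congrArg i hk
    rw [map_zpow] at h2
    exact h2
  have htau2 : (i tau) ^ 2 = 1 := by
    rw [← map_pow, hsq, map_one]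
  have hpow2 : ∀ x ∈ Subgroup.zpowers (i tau), x ^ 2 = 1 := by
    rintro x ⟨k, rfl⟩
    show ((i tau) ^ k) ^ 2 = 1
    rw [← zpow_natCast, zpow_comm, zpow_natCast, htau2, one_zpow]
  -- the element `tau` is trivial
  have hγ2 : (γ ^ L.index) ^ 2 = 1 := hpow2 _ (hmem γ hγk)
  have ht1 : (i tau) ^ L.index = 1 := by
    rw [hs, ← pow_mul, mul_comm, pow_mul]
    exact hγ2
  have ht2 : i tau = 1 := by
    obtain ⟨r, hr⟩ := hodd
    rw [hr, pow_succ, pow_mul, htau2, one_pow, one_mul] at ht1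
    exact ht1
  have h9 := hmem a ha
  rw [ht2] at h9
  simpa using h9

end Cfsg.Agent.Lib.Compute.Mult.PLocal
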