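import Cfsg.Agent.Lib.Compute.CoverCert
import Mathlib.GroupTheory.Transfer

/-!
# Local bounds for the kernel of a stem extension

Let `Γ → G` be a stem extension of a perfect group, with kernel `A`, and `P ≤ G`, with preimage `E`.  The transfer from
`Γ` to `E / E'` is trivial, and it sends `a ∈ A` to the class of `a ^ [G : P]`.  So `a ^ [G : P] ∈ E'`.
-/

set_option autoImplicit false

namespace Cfsg.Agent.Lib.Compute.Mult.PLocal

open Cfsg
open scoped commutatorElement

variable {Γ G : Type*} [Group Γ] [Group G]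

/-- A stem extension of a perfect group is perfect. -/
theorem perfect_of_stem {σ : Γ →* G} (hstem : IsStemExtension σ) (hG : commutator G = ⊤) : commutator Γ = ⊤ := by
  obtain ⟨hs, hc, hcomm⟩ := hstem
  rw [eq_top_iff]
  intro x _
  have h1 : σ x ∈ (commutator Γ).map σ := by
    rw [commutator_def, Subgroup.map_commutator, Subgroup.map_top_of_surjective _ hs]
    have : σ x ∈ commutator G := by rw [hG]; trivial
    exact this
  obtain ⟨y, hy, hyx⟩ := h1
  have h2 : y⁻¹ * x ∈ σ.ker := by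
    rw [MonoidHom.mem_ker, map_mul, map_inv, hyx, inv_mul_cancel]
  have h3 := (commutator Γ).mul_mem hy (hcomm h2)
  simpa using h3

/-- The transfer. -/
theorem pow_index_mem [Finite Γ] {σ : Γ →* G} (hstem : IsStemExtension σ) (hG : commutator G = ⊤) (P : Subgroup G)
    {a : Γ} (ha : a ∈ σ.ker) : ∃ y : commutator (P.comap σ), ((y : P.comap σ) : Γ) = a ^ P.index := by
  classical
  have hperf := perfect_of_stem hstem hG
  set E : Subgroup Γ := P.comap σ with hE
  have hidx : E.index = P.index := Subgroup.index_comap_of_surjective P hstem.1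
  have : E.FiniteIndex := inferInstance
  let ϕ : E →* Abelianization E := Abelianization.of
  have hV : MonoidHom.transfer ϕ a = 1 := by
    have h1 : a ∈ commutator Γ := by rw [hperf]; trivial
    have h2 := Abelianization.commutator_subset_ker (MonoidHom.transfer ϕ) h1
    exact h2
  have hcen : ∀ g, g * a = a * g := Subgroup.mem_center_iff.mp (hstem.2.1 ha)
  have key : ∀ (k : ℕ) (g₀ : Γ), g₀⁻¹ * a ^ k * g₀ ∈ E → g₀⁻¹ * a ^ k * g₀ = a ^ k := by
    intro k g₀ _
    have h1 : g₀ * a ^ k = a ^ k * g₀ := by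
      have h2 : Commute g₀ a := hcen g₀
      exact (h2.pow_right k).eq
    rw [mul_assoc, ← h1, inv_mul_cancel_left]
  have h3 := MonoidHom.transfer_eq_pow ϕ a key
  rw [hV] at h3
  have hmem : (⟨a ^ E.index, MonoidHom.transfer_eq_pow_aux a key⟩ : E) ∈ commutator E := by
    have h4 : ϕ ⟨a ^ E.index, MonoidHom.transfer_eq_pow_aux a key⟩ = 1 := h3.symm
    have h5 := (Abelianization.of (G := E)).mem_ker.2 h4
    rwa [Abelianization.ker_of] at h5
  refine ⟨⟨_, hmem⟩, ?_⟩
  show a ^ E.index = a ^ P.index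
  rw [hidx]

theorem comm_mul_of (a b t : Γ) (h1 : Commute ⁅b, t⁆ a) (h2 : Commute ⁅b, t⁆ t) : ⁅a * b, t⁆ = ⁅a, t⁆ * ⁅b, t⁆ := by
  have h3 : ⁅b, t⁆ * (a * t * a⁻¹ * t⁻¹) = (a * t * a⁻¹ * t⁻¹) * ⁅b, t⁆ := by
    have := ((((h1.mul_right h2).mul_right h1.inv_right).mul_right h2.inv_right)).eq
    simpa [mul_assoc] using this
  calc ⁅a * b, t⁆ = a * ⁅b, t⁆ * t * a⁻¹ * t⁻¹ := by
        simp only [commutatorElement_def]
        group
    _ = ⁅b, t⁆ * (a * t * a⁻¹ * t⁻¹) := by
        rw [← h1.eq]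
        group
    _ = ⁅a, t⁆ * ⁅b, t⁆ := by
        rw [h3, commutatorElement_def a t]

theorem comm_inv_of (a t : Γ) (h1 : Commute ⁅a, t⁆ a) : ⁅a⁻¹, t⁆ = ⁅a, t⁆⁻¹ := by
  have h2 : a⁻¹ * ⁅a, t⁆ * a = ⁅a, t⁆ := by
    rw [mul_assoc, h1.eq, inv_mul_cancel_left]
  rw [← h2]
  simp only [commutatorElement_def]
  group

/-- A criterion for the commutators in a generated subgroup to lie in a subgroup. -/
theorem comm_mem_of_gens (T : Set Γ) (C : Subgroup Γ) (hC : ∀ c ∈ C, ∀ t ∈ T, c * t = t * c)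
    (h : ∀ s ∈ T, ∀ t ∈ T, ⁅s, t⁆ ∈ C) : ∀ x ∈ Subgroup.closure T, ∀ y ∈ Subgroup.closure T, ⁅x, y⁆ ∈ C := by
  have hCc : ∀ c ∈ C, ∀ t ∈ Subgroup.closure T, Commute c t := by
    intro c hc t ht
    induction ht using Subgroup.closure_induction with
    | mem x hx => exact hC c hc x hx
    | one => exact Commute.one_right c
    | mul x y _ _ hx hy => exact hx.mul_right hy
    | inv x _ hx => exact hx.inv_right
  have step : ∀ x ∈ Subgroup.closure T, (∀ t ∈ T, ⁅t, x⁆ ∈ C) → ∀ a ∈ Subgroup.closure T, ⁅a, x⁆ ∈ C := by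
    intro x hx hb a ha
    induction ha using Subgroup.closure_induction with
    | mem s hs => exact hb s hs
    | one => simp [C.one_mem]
    | mul u v hu hv ihu ihv =>
      rw [comm_mul_of u v x (hCc _ ihv u hu) (hCc _ ihv x hx)]
      exact C.mul_mem ihu ihv
    | inv u hu ihu =>
      rw [comm_inv_of u x (hCc _ ihu u hu)]
      exact C.inv_mem ihu
  intro x hx y hy
  refine step y hy ?_ x hx
  intro t ht
  have h1 := step t (Subgroup.subset_closure ht) (fun s hs => h s hs t ht) y hy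
  have e : ⁅t, y⁆ = ⁅y, t⁆⁻¹ := (commutatorElement_inv y t).symm
  rw [e]
  exact C.inv_mem h1

/-- The main local bound: `P` is generated by the images of `S`, and all commutators of the elements of `S` and of the
kernel lie in a subgroup `C` which commutes with them. -/
theorem pow_index_mem_of_gens [Finite Γ] {σ : Γ →* G} (hstem : IsStemExtension σ) (hG : commutator G = ⊤) (S : Set Γ)
    (C : Subgroup Γ) (hC : ∀ c ∈ C, ∀ t ∈ S, c * t = t * c)
    (h : ∀ s ∈ S, ∀ t ∈ S, ⁅s, t⁆ ∈ C) {a : Γ} (ha : a ∈ σ.ker) :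
    a ^ (Subgroup.closure (σ '' S)).index ∈ C := by
  set P : Subgroup G := Subgroup.closure (σ '' S) with hP
  set E : Subgroup Γ := P.comap σ with hE
  have hcen : ∀ z ∈ σ.ker, ∀ w : Γ, z * w = w * z := fun z hz w =>
    (Subgroup.mem_center_iff.mp (hstem.2.1 hz) w).symm
  set T : Set Γ := S ∪ (σ.ker : Set Γ) with hT
  have hET : ∀ x ∈ E, x ∈ Subgroup.closure T := by
    intro x hx
    have h1 : E = ((Subgroup.closure S).map σ).comap σ := by
      rw [hE, hP, MonoidHom.map_closure]
    have h2 : x ∈ (Subgroup.closure S) ⊔ σ.ker := by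
      rw [← Subgroup.comap_map_eq, ← h1]
      exact hx
    refine (sup_le ?_ ?_ : (Subgroup.closure S) ⊔ σ.ker ≤ Subgroup.closure T) h2
    · exact Subgroup.closure_mono Set.subset_union_left
    · intro z hz
      exact Subgroup.subset_closure (Or.inr hz)
  have hCT : ∀ c ∈ C, ∀ t ∈ T, c * t = t * c := by
    rintro c hc t (ht | ht)
    · exact hC c hc t ht
    · exact (hcen t ht c).symm
  have hTT : ∀ s ∈ T, ∀ t ∈ T, ⁅s, t⁆ ∈ C := by
    rintro s (hs | hs) t (ht | ht)
    · exact h s hs t ht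
    · have : ⁅s, t⁆ = 1 := by
        rw [commutatorElement_eq_one_iff_mul_comm]
        exact (hcen t ht s).symm
      rw [this]
      exact C.one_mem
    · have : ⁅s, t⁆ = 1 := by
        rw [commutatorElement_eq_one_iff_mul_comm]
        exact hcen s hs t
      rw [this]
      exact C.one_mem
    · have : ⁅s, t⁆ = 1 := by
        rw [commutatorElement_eq_one_iff_mul_comm]
        exact hcen s hs t
      rw [this]
      exact C.one_mem
  have hall := comm_mem_of_gens T C hCT hTT
  have hle : (commutator E).map E.subtype ≤ C := by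
    rw [commutator_def, Subgroup.map_commutator, Subgroup.commutator_le]
    rintro u ⟨u', -, rfl⟩ v ⟨v', -, rfl⟩
    exact hall _ (hET _ u'.2) _ (hET _ v'.2)
  obtain ⟨y, hy⟩ := pow_index_mem hstem hG P ha
  rw [← hy]
  exact hle ⟨y.1, y.2, rfl⟩

/-- In a central situation, conjugation does not change a commutator. -/
theorem conj_comm_eq {σ : Γ →* G} (hstem : IsStemExtension σ) {x y : Γ} (h : ⁅x, y⁆ ∈ σ.ker) (s : Γ) :
    ⁅s * x * s⁻¹, s * y * s⁻¹⁆ = ⁅x, y⁆ := by
  have h1 : s * ⁅x, y⁆ * s⁻¹ = ⁅x, y⁆ := by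
    have := Subgroup.mem_center_iff.mp (hstem.2.1 h) s
    rw [this, mul_assoc, mul_inv_cancel, mul_one]
  rw [← conjugate_commutatorElement, h1]

/-- Changing the elements by central factors does not change a commutator. -/
theorem comm_mul_central {σ : Γ →* G} (hstem : IsStemExtension σ) {x y a b : Γ} (ha : a ∈ σ.ker) (hb : b ∈ σ.ker) :
    ⁅x * a, y * b⁆ = ⁅x, y⁆ := by
  simp only [commutatorElement_def]
  exact Cfsg.Agent.Lib.Compute.SchurLin.comm_central_mul x y a b (hstem.2.1 ha) (hstem.2.1 hb)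

end Cfsg.Agent.Lib.Compute.Mult.PLocal
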