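import Cfsg.Agent.Lib.Compute.Mult.PLocal2
import Cfsg.Agent.Lib.Compute.TCChain

/-!
# Local bounds at odd primes for the kernel of a stem extension

Cyclic groups of prime order, extraspecial groups with an automorphism inverting the central quotient, and elementary
abelian groups of rank four with an invariant decomposition.  Also a divisibility from an orbit.
-/

set_option autoImplicit false

namespace Cfsg.Agent.Lib.Compute.Mult.PLocal

open Cfsg
open scoped commutatorElement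

variable {Γ G : Type*} [Group Γ] [Group G]

theorem central_of_ker {σ : Γ →* G} (hstem : IsStemExtension σ) {z : Γ} (hz : z ∈ σ.ker) (w : Γ) : w * z = z * w :=
  Subgroup.mem_center_iff.mp (hstem.2.1 hz) w

/-- The subgroup generated by a lift of an element of prime order. -/
theorem cyclic_pow [Finite Γ] [Finite G] {σ : Γ →* G} (hstem : IsStemExtension σ) (hG : commutator G = ⊤) {p : ℕ}
    [Fact p.Prime] {u : G} (hu : u ^ p = 1) (hne : u ≠ 1) {n : ℕ} (hn : n * p = Nat.card G) {a : Γ} (ha : a ∈ σ.ker) :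
    a ^ n = 1 := by
  obtain ⟨v, rfl⟩ := hstem.1 u
  have h := pow_index_mem_of_gens hstem hG {v} ⊥ (by
    intro c hc t _
    rw [Subgroup.mem_bot.mp hc]
    simp) (by
    intro s hs t ht
    rw [Set.mem_singleton_iff] at hs ht
    subst hs
    subst ht
    simp) ha
  have h1 : Subgroup.closure (σ '' {v}) = Subgroup.zpowers (σ v) := by
    rw [Set.image_singleton, Subgroup.zpowers_eq_closure]
  rw [h1] at h
  have hcard : Nat.card (Subgroup.zpowers (σ v)) = p := by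
    rw [Nat.card_zpowers, orderOf_eq_prime hu hne]
  have hidx := Subgroup.card_mul_index (Subgroup.zpowers (σ v))
  rw [hcard, mul_comm] at hidx
  have hp : 0 < p := (Fact.out : p.Prime).pos
  have h2 : (Subgroup.zpowers (σ v)).index = n := by
    have : (Subgroup.zpowers (σ v)).index * p = n * p := by rw [hidx, hn]
    exact Nat.eq_of_mul_eq_mul_right hp this
  rw [h2] at h
  simpa using h

theorem comm_inv_right' (x y : Γ) (h : Commute ⁅x, y⁆ y) : ⁅x, y⁻¹⁆ = ⁅x, y⁆⁻¹ := by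
  have h2 : y⁻¹ * ⁅x, y⁆ * y = ⁅x, y⁆ := by
    rw [mul_assoc, h.eq, inv_mul_cancel_left]
  have h3 : ⁅x, y⁻¹⁆ = (y⁻¹ * ⁅x, y⁆ * y)⁻¹ := by
    simp only [commutatorElement_def]
    group
  rw [h3, h2]

theorem comm_pow_left' (x y : Γ) (h1 : Commute ⁅x, y⁆ x) (h2 : Commute ⁅x, y⁆ y) (k : ℕ) : ⁅x ^ k, y⁆ = ⁅x, y⁆ ^ k := by
  induction k with
  | zero => simp
  | succ k ih =>
    rw [pow_succ, pow_succ, comm_mul_of (x ^ k) x y (h1.pow_right k) h2, ih]

/-- An element of order dividing both `q` and two is trivial. -/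
theorem eq_one_of_pow_two {q : ℕ} (hq : Odd q) {v : Γ} (h2 : v ^ 2 = 1) (h3 : v ^ q = 1) : v = 1 := by
  obtain ⟨r, rfl⟩ := hq
  rw [pow_succ, pow_mul, h2, one_pow, one_mul] at h3
  exact h3

/-- An extraspecial group with an involution inverting the central quotient. -/
theorem heis_pow [Finite Γ] {σ : Γ →* G} (hstem : IsStemExtension σ) (hG : commutator G = ⊤) {q : ℕ} (hq : Odd q)
    (hqp : q.Prime) {x y s : G} (hx : x ^ q = 1) (hy : y ^ q = 1) (hzq : ⁅x, y⁆ ^ q = 1) (hz1 : ⁅x, y⁆ ≠ 1)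
    (hxz : x * ⁅x, y⁆ = ⁅x, y⁆ * x) (hyz : y * ⁅x, y⁆ = ⁅x, y⁆ * y) (hsx : s * x * s⁻¹ = x⁻¹) (hsy : s * y * s⁻¹ = y⁻¹)
    {a : Γ} (ha : a ∈ σ.ker) : a ^ (Subgroup.closure {x, y}).index = 1 := by
  obtain ⟨xt, rfl⟩ := hstem.1 x
  obtain ⟨yt, rfl⟩ := hstem.1 y
  obtain ⟨st, rfl⟩ := hstem.1 s
  set z := ⁅xt, yt⁆ with hz
  have hσz : σ z = ⁅σ xt, σ yt⁆ := map_commutatorElement σ xt yt
  have ker_of : ∀ {u v : Γ}, σ u = σ v → v⁻¹ * u ∈ σ.ker := by
    intro u v h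
    rw [MonoidHom.mem_ker, map_mul, map_inv, h, inv_mul_cancel]
  -- conjugation
  have hxk : xt⁻¹⁻¹ * (st * xt * st⁻¹) ∈ σ.ker := ker_of (by
    simp only [map_mul, map_inv]
    exact hsx)
  have hyk : yt⁻¹⁻¹ * (st * yt * st⁻¹) ∈ σ.ker := ker_of (by
    simp only [map_mul, map_inv]
    exact hsy)
  have hxe : st * xt * st⁻¹ = xt⁻¹ * (xt⁻¹⁻¹ * (st * xt * st⁻¹)) := by group
  have hye : st * yt * st⁻¹ = yt⁻¹ * (yt⁻¹⁻¹ * (st * yt * st⁻¹)) := by group
  -- the commutator of `z` is central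
  have hzconj : z⁻¹ * ⁅xt⁻¹, yt⁻¹⁆ ∈ σ.ker := by
    apply ker_of
    rw [hσz, map_commutatorElement, map_inv, map_inv]
    calc ⁅(σ xt)⁻¹, (σ yt)⁻¹⁆ = (σ xt)⁻¹ * (σ yt)⁻¹ * (⁅σ xt, σ yt⁆ * σ yt) * σ xt := by
          simp only [commutatorElement_def]
          group
      _ = (σ xt)⁻¹ * (σ yt)⁻¹ * (σ yt * ⁅σ xt, σ yt⁆) * σ xt := by rw [hyz]
      _ = (σ xt)⁻¹ * (⁅σ xt, σ yt⁆ * σ xt) := by
          simp only [mul_assoc, inv_mul_cancel_left]
      _ = (σ xt)⁻¹ * (σ xt * ⁅σ xt, σ yt⁆) := by rw [hxz]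
      _ = ⁅σ xt, σ yt⁆ := by rw [inv_mul_cancel_left]
  have hzs2 : st * z * st⁻¹ = z * (z⁻¹ * ⁅xt⁻¹, yt⁻¹⁆) := by
    have h1 : st * z * st⁻¹ = ⁅st * xt * st⁻¹, st * yt * st⁻¹⁆ := by
      simp only [hz, commutatorElement_def]
      group
    rw [h1, hxe, hye, comm_mul_central hstem hxk hyk, mul_inv_cancel_left]
  have hkill : ∀ w : Γ, σ (⁅w, z⁆) = 1 → (st * w * st⁻¹ = w⁻¹ * (w⁻¹⁻¹ * (st * w * st⁻¹))) →
      w⁻¹⁻¹ * (st * w * st⁻¹) ∈ σ.ker → (σ w) ^ q = 1 → ⁅w, z⁆ = 1 := by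
    intro w hw1 hwe hwk hwq
    have hv : ⁅w, z⁆ ∈ σ.ker := hw1
    have hvc : ∀ u : Γ, Commute ⁅w, z⁆ u := fun u => (central_of_ker hstem hv u).symm
    have h2 : ⁅w, z⁆ ^ 2 = 1 := by
      have h3 : ⁅st * w * st⁻¹, st * z * st⁻¹⁆ = ⁅w, z⁆ := conj_comm_eq hstem hv st
      rw [hwe, hzs2, comm_mul_central hstem hwk hzconj] at h3
      have h4 : ⁅w⁻¹, z⁆ = ⁅w, z⁆⁻¹ := comm_inv_of w z (hvc w)
      rw [h4] at h3
      rw [pow_two]
      nth_rw 1 [← h3]
      exact inv_mul_cancel _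
    have h3 : ⁅w, z⁆ ^ q = 1 := by
      rw [← comm_pow_left' w z (hvc w) (hvc z) q, commutatorElement_eq_one_iff_mul_comm]
      have hk : w ^ q ∈ σ.ker := by
        rw [MonoidHom.mem_ker, map_pow, hwq]
      exact (central_of_ker hstem hk z).symm
    exact eq_one_of_pow_two hq h2 h3
  have hxzt : ⁅xt, z⁆ = 1 := by
    apply hkill xt ?_ hxe hxk hx
    rw [map_commutatorElement, hσz, commutatorElement_eq_one_iff_mul_comm]
    exact hxz
  have hyzt : ⁅yt, z⁆ = 1 := by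
    apply hkill yt ?_ hye hyk hy
    rw [map_commutatorElement, hσz, commutatorElement_eq_one_iff_mul_comm]
    exact hyz
  have cxz : xt * z = z * xt := commutatorElement_eq_one_iff_mul_comm.mp hxzt
  have cyz : yt * z = z * yt := commutatorElement_eq_one_iff_mul_comm.mp hyzt
  have hCgen : ∀ c ∈ Subgroup.zpowers z, ∀ t ∈ ({xt, yt} : Set Γ), c * t = t * c := by
    intro c hc t ht
    obtain ⟨k, rfl⟩ := Subgroup.mem_zpowers_iff.mp hc
    have ht' : t = xt ∨ t = yt := by simpa using ht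
    rcases ht' with ht' | ht' <;> rw [ht']
    · exact ((Commute.zpow_left (show Commute z xt from cxz.symm) k)).eq
    · exact ((Commute.zpow_left (show Commute z yt from cyz.symm) k)).eq
  have hcomm : ∀ s ∈ ({xt, yt} : Set Γ), ∀ t ∈ ({xt, yt} : Set Γ), ⁅s, t⁆ ∈ Subgroup.zpowers z := by
    intro s hs t ht
    have hs' : s = xt ∨ s = yt := by simpa using hs
    have ht' : t = xt ∨ t = yt := by simpa using ht
    rcases hs' with hs' | hs' <;> rcases ht' with ht' | ht' <;> rw [hs', ht']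
    · rw [commutatorElement_self]
      exact one_mem _
    · exact Subgroup.mem_zpowers _
    · rw [← commutatorElement_inv]
      exact inv_mem (Subgroup.mem_zpowers _)
    · rw [commutatorElement_self]
      exact one_mem _
  have h1 := pow_index_mem_of_gens hstem hG {xt, yt} (Subgroup.zpowers z) hCgen hcomm ha
  rw [Set.image_pair] at h1
  -- the order of the element
  have hzq' : z ^ q = 1 := by
    rw [hz, ← comm_pow_left' xt yt (show Commute z xt from cxz.symm) (show Commute z yt from cyz.symm) q,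
      commutatorElement_eq_one_iff_mul_comm]
    have hk : xt ^ q ∈ σ.ker := by
      rw [MonoidHom.mem_ker, map_pow, hx]
    exact (central_of_ker hstem hk yt).symm
  obtain ⟨k, hk⟩ := h1
  have hk' : z ^ k = a ^ (Subgroup.closure {σ xt, σ yt}).index := hk
  have hσk : (⁅σ xt, σ yt⁆) ^ k = 1 := by
    rw [← hσz, ← map_zpow, hk', map_pow, MonoidHom.mem_ker.mp ha, one_pow]
  have hord : orderOf (⁅σ xt, σ yt⁆) = q := by
    have : Fact q.Prime := ⟨hqp⟩
    exact orderOf_eq_prime hzq hz1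
  have hdvd : (q : ℤ) ∣ k := by
    rw [← hord]
    exact orderOf_dvd_iff_zpow_eq_one.mpr hσk
  obtain ⟨m, rfl⟩ := hdvd
  rw [← hk', zpow_mul, zpow_natCast, hzq', one_zpow]

/-- An elementary abelian group of rank four, with an involution and an element moving the decomposition. -/
theorem elem_pow [Finite Γ] {σ : Γ →* G} (hstem : IsStemExtension σ) (hG : commutator G = ⊤) {x1 x2 s τ : G}
    (h1 : x1 ^ 3 = 1) (h2 : x2 ^ 3 = 1)
    (h12 : x1 * x2 = x2 * x1)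
    (h13 : x1 * (τ * x1 * τ⁻¹) = (τ * x1 * τ⁻¹) * x1) (h14 : x1 * (τ * x2 * τ⁻¹) = (τ * x2 * τ⁻¹) * x1)
    (h23 : x2 * (τ * x1 * τ⁻¹) = (τ * x1 * τ⁻¹) * x2) (h24 : x2 * (τ * x2 * τ⁻¹) = (τ * x2 * τ⁻¹) * x2)
    (hs1 : s * x1 * s⁻¹ = x1) (hs2 : s * x2 * s⁻¹ = x2)
    (hs3 : s * (τ * x1 * τ⁻¹) * s⁻¹ = (τ * x1 * τ⁻¹)⁻¹) (hs4 : s * (τ * x2 * τ⁻¹) * s⁻¹ = (τ * x2 * τ⁻¹)⁻¹) :
    ∃ w ∈ σ.ker, w ^ 3 = 1 ∧ ∀ a ∈ σ.ker,
      a ^ (Subgroup.closure {x1, x2, τ * x1 * τ⁻¹, τ * x2 * τ⁻¹}).index ∈ Subgroup.zpowers w := by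
  obtain ⟨xt1, rfl⟩ := hstem.1 x1
  obtain ⟨xt2, rfl⟩ := hstem.1 x2
  obtain ⟨st, rfl⟩ := hstem.1 s
  obtain ⟨tt, rfl⟩ := hstem.1 τ
  set xt3 := tt * xt1 * tt⁻¹ with hx3
  set xt4 := tt * xt2 * tt⁻¹ with hx4
  have hm3 : σ xt3 = σ tt * σ xt1 * (σ tt)⁻¹ := by simp [hx3]
  have hm4 : σ xt4 = σ tt * σ xt2 * (σ tt)⁻¹ := by simp [hx4]
  have ker_comm : ∀ {u v : Γ}, σ u * σ v = σ v * σ u → ⁅u, v⁆ ∈ σ.ker := by
    intro u v h
    rw [MonoidHom.mem_ker, map_commutatorElement, commutatorElement_eq_one_iff_mul_comm]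
    exact h
  have ker_of : ∀ {u v : Γ}, σ u = σ v → v⁻¹ * u ∈ σ.ker := by
    intro u v h
    rw [MonoidHom.mem_ker, map_mul, map_inv, h, inv_mul_cancel]
  set w := ⁅xt1, xt2⁆ with hw
  have hwk : w ∈ σ.ker := ker_comm h12
  have hcen : ∀ {z : Γ}, z ∈ σ.ker → ∀ y : Γ, y * z = z * y := fun hz y => central_of_ker hstem hz y
  -- orders
  have horder : ∀ {u v : Γ}, σ u ^ 3 = 1 → ⁅u, v⁆ ∈ σ.ker → ⁅u, v⁆ ^ 3 = 1 := by
    intro u v hu hk
    have hc : ∀ y : Γ, Commute ⁅u, v⁆ y := fun y => (hcen hk y).symm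
    rw [← comm_pow_left' u v (hc u) (hc v) 3, commutatorElement_eq_one_iff_mul_comm]
    have hk3 : u ^ 3 ∈ σ.ker := by
      rw [MonoidHom.mem_ker, map_pow, hu]
    exact (hcen hk3 v).symm
  have hkill : ∀ {u v : Γ}, σ u ^ 3 = 1 → σ st * σ u * (σ st)⁻¹ = σ u → σ st * σ v * (σ st)⁻¹ = (σ v)⁻¹ →
      σ u * σ v = σ v * σ u → ⁅u, v⁆ = 1 := by
    intro u v hu3 hsu hsv hc
    have hk : ⁅u, v⁆ ∈ σ.ker := ker_comm hc
    have h3 := horder hu3 hk
    have hc' : ∀ y : Γ, Commute ⁅u, v⁆ y := fun y => (hcen hk y).symm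
    have hu1 : u⁻¹ * (st * u * st⁻¹) ∈ σ.ker := ker_of (by simpa using hsu)
    have hv1 : v⁻¹⁻¹ * (st * v * st⁻¹) ∈ σ.ker := ker_of (by simpa using hsv)
    have e1 : st * u * st⁻¹ = u * (u⁻¹ * (st * u * st⁻¹)) := by group
    have e2 : st * v * st⁻¹ = v⁻¹ * (v⁻¹⁻¹ * (st * v * st⁻¹)) := by group
    have h4 : ⁅st * u * st⁻¹, st * v * st⁻¹⁆ = ⁅u, v⁆ := conj_comm_eq hstem hk st
    rw [e1, e2, comm_mul_central hstem hu1 hv1, comm_inv_right' u v (hc' v)] at h4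
    have h2 : ⁅u, v⁆ ^ 2 = 1 := by
      rw [pow_two]
      nth_rw 1 [← h4]
      exact inv_mul_cancel _
    exact eq_one_of_pow_two (by decide) h2 h3
  have h13z : ⁅xt1, xt3⁆ = 1 := hkill h1 hs1 (by rw [hm3]; exact hs3) (by rw [hm3]; exact h13)
  have h14z : ⁅xt1, xt4⁆ = 1 := hkill h1 hs1 (by rw [hm4]; exact hs4) (by rw [hm4]; exact h14)
  have h23z : ⁅xt2, xt3⁆ = 1 := hkill h2 hs2 (by rw [hm3]; exact hs3) (by rw [hm3]; exact h23)
  have h24z : ⁅xt2, xt4⁆ = 1 := hkill h2 hs2 (by rw [hm4]; exact hs4) (by rw [hm4]; exact h24)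
  have h34z : ⁅xt3, xt4⁆ = w := by
    rw [hx3, hx4, hw]
    exact conj_comm_eq hstem hwk tt
  have hw3 : w ^ 3 = 1 := horder h1 hwk
  refine ⟨w, hwk, hw3, ?_⟩
  intro a ha
  have hSimg : σ '' {xt1, xt2, xt3, xt4} = {σ xt1, σ xt2, σ tt * σ xt1 * (σ tt)⁻¹, σ tt * σ xt2 * (σ tt)⁻¹} := by
    rw [← hm3, ← hm4]
    simp [Set.image_insert_eq]
  have hres := pow_index_mem_of_gens hstem hG {xt1, xt2, xt3, xt4} (Subgroup.zpowers w) (by
      rintro c ⟨k, rfl⟩ t _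
      exact (Commute.zpow_left (show Commute w t from (hcen hwk t).symm) k).eq) (by
      have hsym : ∀ {u v : Γ}, ⁅u, v⁆ ∈ Subgroup.zpowers w → ⁅v, u⁆ ∈ Subgroup.zpowers w := by
        intro u v h
        rw [← commutatorElement_inv]
        exact inv_mem h
      have h11 : ∀ u : Γ, ⁅u, u⁆ ∈ Subgroup.zpowers w := by
        intro u
        simp [Subgroup.one_mem]
      have h12' : ⁅xt1, xt2⁆ ∈ Subgroup.zpowers w := Subgroup.mem_zpowers _
      have h34' : ⁅xt3, xt4⁆ ∈ Subgroup.zpowers w := by rw [h34z]; exact Subgroup.mem_zpowers _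
      have h13' : ⁅xt1, xt3⁆ ∈ Subgroup.zpowers w := by rw [h13z]; exact one_mem _
      have h14' : ⁅xt1, xt4⁆ ∈ Subgroup.zpowers w := by rw [h14z]; exact one_mem _
      have h23' : ⁅xt2, xt3⁆ ∈ Subgroup.zpowers w := by rw [h23z]; exact one_mem _
      have h24' : ⁅xt2, xt4⁆ ∈ Subgroup.zpowers w := by rw [h24z]; exact one_mem _
      intro s hs t ht
      simp only [Set.mem_insert_iff, Set.mem_singleton_iff] at hs ht
      rcases hs with rfl | rfl | rfl | rfl <;> rcases ht with rfl | rfl | rfl | rfl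
      · exact h11 _
      · exact h12'
      · exact h13'
      · exact h14'
      · exact hsym h12'
      · exact h11 _
      · exact h23'
      · exact h24'
      · exact hsym h13'
      · exact hsym h23'
      · exact h11 _
      · exact h34'
      · exact hsym h14'
      · exact hsym h24'
      · exact hsym h34'
      · exact h11 _) ha
  rwa [hSimg] at hres

/-- Divisibility of the order of a subgroup from an orbit. -/
theorem dvd_card_of_orbit {N : ℕ} [Finite G] (φ : G →* Equiv.Perm (Fin N)) (B : Subgroup G) (L : List (Fin N))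
    (hB : ∀ b ∈ B, ∀ p ∈ L, φ b p ∈ L) (hnd : L.Nodup) {q : Fin N} (hq : q ∈ L) (hreach : ∀ p ∈ L, ∃ b ∈ B, φ b q = p) :
    L.length ∣ Nat.card B := by
  classical
  letI : MulAction B (Fin N) := MulAction.compHom (Fin N) (φ.comp B.subtype)
  have horb : MulAction.orbit B q = {p | p ∈ L} := by
    ext p
    constructor
    · rintro ⟨b, rfl⟩
      exact hB _ b.2 _ hq
    · intro hp
      obtain ⟨b, hb, rfl⟩ := hreach p hp
      exact ⟨⟨b, hb⟩, rfl⟩
  have h1 := MulAction.index_stabilizer B q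
  have h2 : (MulAction.orbit B q).ncard = L.length := by
    rw [horb]
    have h3 : {p | p ∈ L} = (L.toFinset : Set (Fin N)) := by
      ext p
      simp
    rw [h3, Set.ncard_coe_finset, List.toFinset_card_of_nodup hnd]
  rw [h2] at h1
  rw [← h1]
  exact Subgroup.index_dvd_card _

end Cfsg.Agent.Lib.Compute.Mult.PLocal
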